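import Mathlib

/-! The determinant is surjective on the centraliser of a semisimple endomorphism over a finite field. -/
set_option autoImplicit false

namespace CfsgLib.Semisimple
open Polynomial Module

variable {K : Type*} [Field K] [Finite K] {V : Type*} [AddCommGroup V] [Module K V] [FiniteDimensional K V] [Nontrivial V]

theorem exists_det_commute (φ : Module.End K V) {m : ℕ} (hm : (m : K) ≠ 0) (hφ : φ ^ m = 1) (a : Kˣ) :
    ∃ y : Module.End K V, y * φ = φ * y ∧ LinearMap.det y = a := by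
  classical
  have hss : φ.IsSemisimple := Module.End.isSemisimple_of_squarefree_aeval_eq_zero
    ((separable_X_pow_sub_C (1 : K) hm one_ne_zero).squarefree) (by simp [hφ])
  haveI : IsSemisimpleModule K[X] (AEval' φ) := hss
  haveI : Module.Finite K (AEval' φ) := Module.Finite.equiv (AEval'.of φ)
  haveI : Nontrivial (AEval' φ) := (AEval'.of φ).symm.toEquiv.nontrivial
  obtain ⟨W, hW⟩ := IsSemisimpleModule.exists_simple_submodule K[X] (AEval' φ)
  obtain ⟨W', hc⟩ := exists_isCompl W
  obtain ⟨I, hI, ⟨σ⟩⟩ := isSimpleModule_iff_quot_maximal.1 hW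
  letI := Ideal.Quotient.field I
  haveI : Module.Finite K W := Module.Finite.of_injective (W.subtype.restrictScalars K) Subtype.val_injective
  haveI : Module.Finite K W' := Module.Finite.of_injective (W'.subtype.restrictScalars K) Subtype.val_injective
  haveI : Module.Finite K (K[X] ⧸ I) := Module.Finite.equiv (σ.restrictScalars K)
  haveI : Finite (K[X] ⧸ I) := Module.finite_of_finite K
  obtain ⟨e, he⟩ := FiniteField.norm_surjective K (K[X] ⧸ I) (a : K)
  let T : W →ₗ[K[X]] W := σ.symm.toLinearMap ∘ₗ (LinearMap.mulLeft K[X] e) ∘ₗ σ.toLinearMap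
  let P := Submodule.prodEquivOfIsCompl W W' hc
  let Y : AEval' φ →ₗ[K[X]] AEval' φ := P.toLinearMap ∘ₗ (T.prodMap LinearMap.id) ∘ₗ P.symm.toLinearMap
  have hT : LinearMap.det (T.restrictScalars K) = a := by
    have : T.restrictScalars K = ((σ.restrictScalars K).symm : (K[X] ⧸ I) →ₗ[K] W) ∘ₗ
        (LinearMap.mulLeft K e) ∘ₗ ((σ.restrictScalars K).symm.symm : W →ₗ[K] (K[X] ⧸ I)) := rfl
    rw [this, LinearMap.det_conj, ← he, Algebra.norm_apply]
    rfl
  have hY : LinearMap.det (Y.restrictScalars K) = a := by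
    have : Y.restrictScalars K = ((P.restrictScalars K) : (W × W') →ₗ[K] AEval' φ) ∘ₗ
        ((T.restrictScalars K).prodMap (LinearMap.id : W' →ₗ[K] W')) ∘ₗ
        ((P.restrictScalars K).symm : AEval' φ →ₗ[K] (W × W')) := rfl
    rw [this, LinearMap.det_conj, LinearMap.det_prodMap, hT, LinearMap.det_id, mul_one]
  let o : V ≃ₗ[K] AEval' φ := AEval'.of φ
  refine ⟨(o.symm : AEval' φ →ₗ[K] V) ∘ₗ (Y.restrictScalars K) ∘ₗ (o.symm.symm : V →ₗ[K] AEval' φ), ?_, ?_⟩
  · refine LinearMap.ext fun v => ?_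
    show o.symm (Y (o (φ v))) = φ (o.symm (Y (o v)))
    obtain ⟨w, hw⟩ := o.surjective (Y (o v))
    have h1 : o (φ v) = (X : K[X]) • o v := (AEval.X_smul_of (R := K) (a := φ) v).symm
    have h2 : o (φ w) = (X : K[X]) • o w := (AEval.X_smul_of (R := K) (a := φ) w).symm
    rw [h1, map_smul, ← hw, o.symm_apply_apply, ← h2, o.symm_apply_apply]
  · rw [LinearMap.det_conj, hY]

end CfsgLib.Semisimple
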