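import Mathlib

/-! Semisimple matrices with prescribed characteristic polynomial over a finite field. -/

set_option autoImplicit false

namespace CfsgLib.Semisimple.Realize

open Polynomial

variable {F : Type*} [Field F]

theorem realize (r : ℕ) (s : Multiset F[X]) (hs : ∀ φ ∈ s, φ.Monic ∧ Irreducible φ ∧ φ ∣ X ^ r - 1) :
    ∀ m : ℕ, (s.map natDegree).sum = m → ∃ A : Matrix (Fin m) (Fin m) F, A ^ r = 1 ∧ A.charpoly = s.prod := by
  classical
  induction s using Multiset.induction with
  | empty =>
    intro m hm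
    simp only [Multiset.map_zero, Multiset.sum_zero] at hm
    subst hm
    exact ⟨0, Subsingleton.elim _ _, by rw [Multiset.prod_zero, Matrix.charpoly, Matrix.det_isEmpty]⟩
  | cons φ s ih =>
    intro m hm
    obtain ⟨hmon, hirr, hdvd⟩ := hs φ (Multiset.mem_cons_self _ _)
    obtain ⟨B, hB, hBc⟩ := ih (fun ψ h => hs ψ (Multiset.mem_cons_of_mem h)) _ rfl
    rw [Multiset.map_cons, Multiset.sum_cons] at hm
    let pb := AdjoinRoot.powerBasis hmon.ne_zero
    let A := Algebra.leftMulMatrix pb.basis pb.gen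
    have hA : A ^ r = 1 := by
      rw [← map_pow]
      have h1 : (AdjoinRoot.root φ) ^ r - 1 = 0 := by
        have h2 := AdjoinRoot.mk_eq_zero.2 hdvd
        simpa using h2
      rw [show pb.gen = AdjoinRoot.root φ from AdjoinRoot.powerBasis_gen _, sub_eq_zero.1 h1, map_one]
    have hAc : A.charpoly = φ := by
      rw [charpoly_leftMulMatrix]
      exact AdjoinRoot.minpoly_powerBasis_gen_of_monic hmon
    have hdim : pb.dim = φ.natDegree := AdjoinRoot.powerBasis_dim _
    let e : Fin pb.dim ⊕ Fin (s.map natDegree).sum ≃ Fin m := finSumFinEquiv.trans (finCongr (by omega))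
    refine ⟨Matrix.reindexAlgEquiv F F e (Matrix.fromBlocks A 0 0 B), ?_, ?_⟩
    · rw [← map_pow, Matrix.fromBlocks_diagonal_pow, hA, hB, Matrix.fromBlocks_one, map_one]
    · rw [Matrix.coe_reindexAlgEquiv, Matrix.charpoly_reindex, Matrix.charpoly_fromBlocks_zero₁₂, hAc, hBc, Multiset.prod_cons]

variable [Fintype F]

/-- The exponent used for all semisimple elements of degree at most `n`. -/
def expo (F : Type*) [Fintype F] (n : ℕ) : ℕ := ∏ d ∈ Finset.Icc 1 n, (Fintype.card F ^ d - 1)

theorem expo_ne_zero (n : ℕ) : (expo F n : F) ≠ 0 := by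
  rw [expo, Nat.cast_prod, Finset.prod_ne_zero_iff]
  intro d hd
  rw [Nat.cast_sub (Nat.one_le_pow _ _ Fintype.card_pos), Nat.cast_one, Nat.cast_pow, Nat.cast_card_eq_zero,
    zero_pow (by have := (Finset.mem_Icc.1 hd).1; omega)]
  simp

theorem exists_semisimple {n : ℕ} (f : F[X]) (hf : f.Monic) (hd : f.natDegree = n) (h0 : f.coeff 0 ≠ 0) :
    ∃ A : Matrix (Fin n) (Fin n) F, A ^ expo F n = 1 ∧ A.charpoly = f := by
  classical
  have hprod : (UniqueFactorizationMonoid.normalizedFactors f).prod = f := by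
    rw [UniqueFactorizationMonoid.prod_normalizedFactors_eq hf.ne_zero, hf.normalize_eq_self]
  have hs : ∀ φ ∈ UniqueFactorizationMonoid.normalizedFactors f, φ.Monic ∧ Irreducible φ ∧ φ ∣ X ^ expo F n - 1 := by
    intro φ hφ
    obtain ⟨hirr, hmon, hdvd⟩ := (Polynomial.mem_normalizedFactors_iff hf.ne_zero).1 hφ
    refine ⟨hmon, hirr, ?_⟩
    haveI := Fact.mk hirr
    let pb := AdjoinRoot.powerBasis hmon.ne_zero
    haveI : Module.Finite F (AdjoinRoot φ) := pb.finite
    haveI : Finite (AdjoinRoot φ) := Module.finite_of_finite F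
    haveI : Fintype (AdjoinRoot φ) := Fintype.ofFinite _
    have hcard : Fintype.card (AdjoinRoot φ) = Fintype.card F ^ φ.natDegree := by
      rw [Module.card_eq_pow_finrank (K := F), pb.finrank, AdjoinRoot.powerBasis_dim]
    have hz : AdjoinRoot.root φ ≠ 0 := by
      intro hz
      apply h0
      have h1 : φ ∣ X := AdjoinRoot.mk_eq_zero.1 (by rw [AdjoinRoot.mk_X]; exact hz)
      have h2 : X ∣ f := (hirr.associated_of_dvd Polynomial.irreducible_X h1).symm.dvd.trans hdvd
      exact Polynomial.X_dvd_iff.1 h2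
    have hdle : φ.natDegree ≤ n := hd ▸ Polynomial.natDegree_le_of_dvd hdvd hf.ne_zero
    have h3 : Fintype.card F ^ φ.natDegree - 1 ∣ expo F n :=
      Finset.dvd_prod_of_mem _ (Finset.mem_Icc.2 ⟨hirr.natDegree_pos, hdle⟩)
    apply AdjoinRoot.mk_eq_zero.1
    obtain ⟨c, hc⟩ := h3
    rw [map_sub, map_pow, AdjoinRoot.mk_X, map_one, hc, pow_mul, ← hcard, FiniteField.pow_card_sub_one_eq_one _ hz,
      one_pow, sub_self]
  have hdeg : ((UniqueFactorizationMonoid.normalizedFactors f).map natDegree).sum = n := by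
    rw [← Polynomial.natDegree_multiset_prod_of_monic _ (fun φ hφ => (hs φ hφ).1), hprod, hd]
  obtain ⟨A, hA, hAc⟩ := realize _ _ hs n hdeg
  exact ⟨A, hA, hAc.trans hprod⟩

/-- Monic polynomials of degree `n` correspond to their lower coefficients. -/
theorem monic_coeff_bijective (n : ℕ) :
    Function.Bijective (fun f : {f : F[X] // f.Monic ∧ f.natDegree = n} => fun i : Fin n => f.1.coeff i) := by
  classical
  constructor
  · rintro ⟨f, hf, hfd⟩ ⟨g, hg, hgd⟩ h
    refine Subtype.ext (Polynomial.ext fun k => ?_)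
    show f.coeff k = g.coeff k
    rcases lt_trichotomy k n with hk | hk | hk
    · exact congrFun h ⟨k, hk⟩
    · subst hk
      rw [show f.coeff k = 1 by rw [← hfd]; exact hf, show g.coeff k = 1 by rw [← hgd]; exact hg]
    · rw [Polynomial.coeff_eq_zero_of_natDegree_lt (by omega), Polynomial.coeff_eq_zero_of_natDegree_lt (by omega)]
  · intro c
    let low : F[X] := ∑ i : Fin n, Polynomial.C (c i) * X ^ (i : ℕ)
    have hlow : low.degree < n := by
      exact Polynomial.degree_sum_fin_lt c
    have hm : (X ^ n + low).Monic := Polynomial.monic_X_pow_add hlow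
    have hd : (X ^ n + low).natDegree = n := by
      apply Polynomial.natDegree_eq_of_degree_eq_some
      rw [Polynomial.degree_add_eq_left_of_degree_lt (by rwa [Polynomial.degree_X_pow]), Polynomial.degree_X_pow]
    refine ⟨⟨X ^ n + low, hm, hd⟩, funext fun i => ?_⟩
    show (X ^ n + low).coeff i = c i
    rw [Polynomial.coeff_add, Polynomial.coeff_X_pow, if_neg (by omega), zero_add]
    simp [low, Polynomial.coeff_X_pow, ← Fin.ext_iff]

end CfsgLib.Semisimple.Realize
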