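import Mathlib

/-! Normal form of a transvection. -/
set_option autoImplicit false

namespace CfsgLib.Semisimple
open Module

variable {F : Type*} [Field F]

theorem exists_conj_transvection {k : ℕ} (t : Matrix (Fin (k + 3)) (Fin (k + 3)) F) (hr : (t - 1).rank = 1)
    (hsq : (t - 1) * (t - 1) = 0) :
    ∃ g : Matrix (Fin (k + 3)) (Fin (k + 3)) F, g.det = 1 ∧ t * g = g * Matrix.transvection 0 1 1 := by
  classical
  set N : (Fin (k + 3) → F) →ₗ[F] (Fin (k + 3) → F) := (t - 1).mulVecLin with hN
  have hrange : finrank F (LinearMap.range N) = 1 := hr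
  have hker : finrank F (LinearMap.ker N) = k + 2 := by
    have := LinearMap.finrank_range_add_finrank_ker N
    rw [hrange, finrank_fintype_fun_eq_card, Fintype.card_fin] at this
    omega
  have hNN : ∀ v, N (N v) = 0 := fun v => by
    show (t - 1).mulVec ((t - 1).mulVec v) = 0
    rw [Matrix.mulVec_mulVec, hsq, Matrix.zero_mulVec]
  obtain ⟨w, hw⟩ : ∃ w, N w ≠ 0 := by
    by_contra h
    push_neg at h
    have h0 : N = 0 := LinearMap.ext fun v => h v
    rw [h0, LinearMap.range_zero, finrank_bot] at hrange
    omega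
  set u := N w with hu
  obtain ⟨C₀, hC₀⟩ := Submodule.exists_isCompl (F ∙ u)
  set C := C₀ ⊓ LinearMap.ker N with hCd
  have hle : F ∙ u ≤ LinearMap.ker N := (Submodule.span_singleton_le_iff_mem _ _).2 (hNN w)
  have hC : finrank F C = k + 1 := by
    have h1 := Submodule.finrank_sup_add_finrank_inf_eq (F ∙ u) C
    have h2 : (F ∙ u) ⊔ C = LinearMap.ker N := by
      rw [hCd, ← sup_inf_assoc_of_le _ hle, hC₀.sup_eq_top, top_inf_eq]
    have h3 : (F ∙ u) ⊓ C = ⊥ := (hC₀.disjoint.mono_right inf_le_left).eq_bot
    rw [h2, h3, finrank_bot, finrank_span_singleton hw, hker] at h1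
    omega
  let c := Module.finBasisOfFinrankEq F C hC
  let col : Fin (k + 3) → (Fin (k + 3) → F) := Fin.cons u (Fin.cons w (fun j => (c j : Fin (k + 3) → F)))
  have hli : LinearIndependent F col := by
    rw [linearIndependent_fin_cons, linearIndependent_fin_cons]
    have hsC : Submodule.span F (Set.range fun j => (c j : Fin (k + 3) → F)) ≤ C :=
      Submodule.span_le.2 (by rintro _ ⟨j, rfl⟩; exact (c j).2)
    refine ⟨⟨c.linearIndependent.map' C.subtype C.ker_subtype, fun h => ?_⟩, fun h => ?_⟩
    · exact hw (Submodule.mem_inf.1 (hsC h)).2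
    · rw [Fin.range_cons, Submodule.mem_span_insert] at h
      obtain ⟨a, z, hz, hz'⟩ := h
      have hzC := hsC hz
      have h1 : N u = a • u := by
        rw [hz', map_add, map_smul, LinearMap.mem_ker.1 (Submodule.mem_inf.1 hzC).2, add_zero, ← hu, ← hz']
      rw [hu, hNN, ← hu] at h1
      have ha : a = 0 := (smul_eq_zero.1 h1.symm).resolve_right hw
      rw [ha, zero_smul, zero_add] at hz'
      exact hw (Submodule.disjoint_def.1 hC₀.disjoint u (Submodule.mem_span_singleton_self u)
        (hz' ▸ (Submodule.mem_inf.1 hzC).1))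
  let g : Matrix (Fin (k + 3)) (Fin (k + 3)) F := Matrix.of fun i j => col j i
  have hdet : g.det ≠ 0 := by
    rw [← isUnit_iff_ne_zero, ← Matrix.isUnit_iff_isUnit_det, ← Matrix.linearIndependent_cols_iff_isUnit]
    exact hli
  have hN' : ∀ j i, ((t - 1) * g) i j = N (col j) i := fun j i => rfl
  have hcomm : t * g = g * Matrix.transvection 0 1 1 := by
    ext i j
    have h1 : (t * g) i j = g i j + N (col j) i := by
      rw [← hN', Matrix.sub_mul, Matrix.one_mul, Matrix.sub_apply]; ring
    rw [h1]
    rcases eq_or_ne j 1 with rfl | hj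
    · rw [Matrix.mul_transvection_apply_same]
      show g i 1 + N w i = g i 1 + 1 * u i
      rw [one_mul, hu]
    · rw [Matrix.mul_transvection_apply_of_ne _ _ _ _ hj, add_eq_left]
      induction j using Fin.cases with
      | zero => exact congrFun (hNN w) i
      | succ j =>
        induction j using Fin.cases with
        | zero => exact absurd rfl hj
        | succ j => exact congrFun (LinearMap.mem_ker.1 (Submodule.mem_inf.1 (c j).2).2) i
  let two : Fin (k + 3) := ⟨2, by omega⟩
  refine ⟨g * Matrix.diagonal (Function.update 1 two (g.det)⁻¹), ?_, ?_⟩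
  · rw [Matrix.det_mul, Matrix.det_diagonal, Finset.prod_update_of_mem (Finset.mem_univ _)]
    simp [mul_inv_cancel₀ hdet]
  · rw [← mul_assoc, hcomm, mul_assoc, mul_assoc]
    congr 1
    have h0 : two ≠ 0 := fun h => absurd (congrArg Fin.val h) (by simp [two])
    have h1 : two ≠ 1 := fun h => absurd (congrArg Fin.val h) (by simp [two])
    ext i j
    rw [Matrix.mul_diagonal, Matrix.diagonal_mul, Matrix.transvection, Matrix.add_apply, Matrix.single_apply,
      Matrix.one_apply]
    rcases eq_or_ne i j with rfl | hij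
    · ring
    · rw [if_neg hij, zero_add]
      split_ifs with h
      · rw [← h.1, ← h.2, Function.update_of_ne h0.symm, Function.update_of_ne h1.symm]; simp
      · simp

end CfsgLib.Semisimple
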